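import Cfsg.Agent.H690.Spor.RankThree
import Cfsg.Agent.Characters.Brauer
import Cfsg.Agent.CharDeep.LinearChar
import Cfsg.Agent.H113.QS.Lies

/-!
# Monomial characters of rank 3 groups have norm at most 3 (helper265, for S4908)
-/

set_option autoImplicit false
set_option linter.unusedSectionVars false

namespace Cfsg.Agent.H265.S8.FiMono

open Cfsg Cfsg.Agent.Characters Cfsg.Agent.Characters.Core Cfsg.Agent.H690.Spor.RankThree Subgroup MulAction
open scoped ComplexConjugate

universe u v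

section gen

variable {L : Type u} [Group L] [Fintype L] {X : Type v} [MulAction L X] [Finite X]

theorem card_fib [IsPretransitive L X] (x0 y : X) : Nat.card {x : L // x • x0 = y} = Nat.card (stabilizer L x0) := by
  obtain ⟨a, ha⟩ := exists_smul_eq L x0 y
  refine Nat.card_congr ⟨fun x => ⟨a⁻¹ * x.1, ?_⟩, fun h => ⟨a * h.1, ?_⟩, fun x => ?_, fun h => ?_⟩
  · rw [mem_stabilizer_iff, mul_smul, x.2, ← ha, inv_smul_smul]
  · rw [mul_smul, (mem_stabilizer_iff.1 h.2), ha]
  · exact Subtype.ext (by simp)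
  · exact Subtype.ext (by simp)

theorem card_conj [IsPretransitive L X] (x0 : X) (g : L) :
    Nat.card {x : L // x⁻¹ * g * x ∈ stabilizer L x0} = Nat.card (stabilizer L x0) * Nat.card (fixedBy X g) := by
  classical
  have := Fintype.ofFinite X
  have e : {x : L // x⁻¹ * g * x ∈ stabilizer L x0} ≃ Σ y : fixedBy X g, {x : L // x • x0 = y} :=
    { toFun := fun x => ⟨⟨x.1 • x0, by
        have h := mem_stabilizer_iff.1 x.2
        rw [mul_smul, mul_smul, inv_smul_eq_iff] at h
        exact h⟩, ⟨x.1, rfl⟩⟩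
      invFun := fun p => ⟨p.2.1, by
        have h := p.1.2
        rw [mem_fixedBy, ← p.2.2] at h
        rw [mem_stabilizer_iff, mul_smul, mul_smul, inv_smul_eq_iff]
        exact h⟩
      left_inv := fun x => rfl
      right_inv := fun p => by
        obtain ⟨⟨y, hy⟩, ⟨x, hx⟩⟩ := p
        change x • x0 = y at hx
        subst hx
        rfl }
  rw [Nat.card_congr e, Nat.card_sigma, Finset.sum_congr rfl fun (y : fixedBy X g) _ => card_fib x0 (y : X), Finset.sum_const,
    Finset.card_univ, smul_eq_mul, Nat.card_eq_fintype_card (α := fixedBy X g), mul_comm]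

theorem norm_le [IsPretransitive L X] (x0 : X) (μ : stabilizer L x0 →* ℂˣ) (g : L) :
    ‖indFun (stabilizer L x0) (fun h => (μ h : ℂ)) g‖ ≤ Nat.card (fixedBy X g) := by
  classical
  have hμ : ∀ h, ‖(μ h : ℂ)‖ = 1 := by
    intro h
    have h1 : (μ h : ℂ) ^ Nat.card (stabilizer L x0) = 1 := by
      rw [← Units.val_pow_eq_pow_val, ← map_pow, pow_card_eq_one', map_one, Units.val_one]
    exact Complex.norm_eq_one_of_pow_eq_one h1 Nat.card_pos.ne'
  rw [indFun_apply]
  have h1 : ‖∑ x : L, extendByZero (stabilizer L x0) (fun h => (μ h : ℂ)) (x⁻¹ * g * x)‖ ≤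
      Nat.card {x : L // x⁻¹ * g * x ∈ stabilizer L x0} := by
    refine (norm_sum_le _ _).trans ?_
    have h2 : ∀ x : L, ‖extendByZero (stabilizer L x0) (fun h => (μ h : ℂ)) (x⁻¹ * g * x)‖ =
        if x⁻¹ * g * x ∈ stabilizer L x0 then (1 : ℝ) else 0 := by
      intro x
      by_cases h : x⁻¹ * g * x ∈ stabilizer L x0
      · rw [extendByZero_of_mem _ _ h, if_pos h, hμ]
      · rw [extendByZero_of_notMem _ _ h, if_neg h, norm_zero]
    rw [Finset.sum_congr rfl fun x _ => h2 x, Finset.sum_boole, Nat.card_eq_fintype_card, Fintype.card_subtype]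
  rw [norm_mul, norm_inv, Complex.norm_natCast]
  rw [card_conj] at h1
  have h0 : (0 : ℝ) < Nat.card (stabilizer L x0) := by exact_mod_cast Nat.card_pos
  rw [inv_mul_le_iff₀ h0]
  refine h1.trans ?_
  push_cast
  exact le_refl _

/-- the sum of the squares of the fixed point numbers -/
theorem sum_sq {R : X → X → Prop} {k l : ℕ} (h : R3 L X R k l) :
    ∑ g : L, (Nat.card (fixedBy X g) : ℝ) ^ 2 = 3 * Nat.card L := by
  classical
  have := Fintype.ofFinite X
  have h1 := Cfsg.Agent.S0157.avg_fixedBy (G := L) (X × X)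
  rw [h.card_orbits] at h1
  simp only [Cfsg.Agent.S0157.card_fixedBy_prod] at h1
  have h0 : (Nat.card L : ℂ) ≠ 0 := by exact_mod_cast Nat.card_pos.ne'
  have h2 : ((∑ g : L, (Nat.card (fixedBy X g) : ℝ) ^ 2 : ℝ) : ℂ) = ((3 * Nat.card L : ℝ) : ℂ) := by
    push_cast
    have h3 := congrArg (fun z : ℂ => (Nat.card L : ℂ) * z) h1
    try beta_reduce at h3
    rw [← mul_assoc, mul_inv_cancel₀ h0, one_mul] at h3
    rw [mul_comm (3 : ℂ)]
    rw [← show ((3 : ℕ) : ℂ) = (3 : ℂ) by norm_num, ← h3]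
    refine Finset.sum_congr rfl fun g _ => ?_
    push_cast
    ring
  exact_mod_cast h2

/-- **a monomial character of a rank 3 group** -/
theorem mono [Fintype (IrrCharacter L)] {R : X → X → Prop} {k l : ℕ} (h : R3 L X R k l) (x0 : X)
    (μ : stabilizer L x0 →* ℂˣ) {z : L} (hz : z ∈ center L) (hzH : z ∈ stabilizer L x0) (hμ : μ ⟨z, hzH⟩ ≠ 1) :
    ∃ m : IrrCharacter L → ℕ, ∑ ψ, m ψ * charDegree (ψ : L → ℂ) = 1 + k + l ∧ ∑ ψ, m ψ ^ 2 ≤ 3 ∧
      ∀ ψ, m ψ ≠ 0 → (ψ : L → ℂ) z ≠ (ψ : L → ℂ) 1 := by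
  classical
  have htr := h.trans
  have := Fintype.ofFinite X
  set W := indFun (stabilizer L x0) (fun h => (μ h : ℂ)) with hW
  have hWc : IsCharacter L W := Brauer.isCharacter_indFun _ (isIrr_isCharacter (Cfsg.Agent.CharDeep.LinearChar.isIrrCharacter_of_hom μ))
  obtain ⟨m, hm⟩ := exists_nat_comb hWc
  have hdeg : ∀ ψ : IrrCharacter L, (ψ : L → ℂ) 1 = (charDegree (ψ : L → ℂ) : ℂ) :=
    fun ψ => Blocks.Knorr.charDegree_eq ψ.2
  have hcoef : ∀ ψ : IrrCharacter L, classInner W (ψ : L → ℂ) = m ψ := by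
    intro ψ
    rw [hm, classInner_sum_left, Finset.sum_eq_single ψ]
    · rw [← Nat.cast_smul_eq_nsmul ℂ, classInner_smul_left, classInner_irr_self ψ.2, mul_one]
    · intro φ _ hne
      rw [← Nat.cast_smul_eq_nsmul ℂ, classInner_smul_left, classInner_irr_ne φ.2 ψ.2 (fun e => hne (Subtype.ext e)),
        mul_zero]
    · intro hh
      exact absurd (Finset.mem_univ _) hh
  refine ⟨m, ?_, ?_, ?_⟩
  · have h1 : W 1 = ((1 + k + l : ℕ) : ℂ) := by
      rw [hW, indFun_apply]
      have h2 : ∀ x : L, extendByZero (stabilizer L x0) (fun h => (μ h : ℂ)) (x⁻¹ * 1 * x) = 1 := by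
        intro x
        have e : x⁻¹ * 1 * x = (1 : L) := by group
        rw [e, extendByZero_of_mem _ _ (one_mem _)]
        have e2 : (⟨1, one_mem _⟩ : stabilizer L x0) = 1 := rfl
        rw [e2, map_one, Units.val_one]
      rw [Finset.sum_congr rfl fun x _ => h2 x, Finset.sum_const, Finset.card_univ, ← Nat.card_eq_fintype_card]
      have h3 : Nat.card L = Nat.card (stabilizer L x0) * (1 + k + l) := by
        rw [← h.cardn, ← MulAction.index_stabilizer_of_transitive L x0, Subgroup.card_mul_index]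
      have h0 : (Nat.card (stabilizer L x0) : ℂ) ≠ 0 := by exact_mod_cast Nat.card_pos.ne'
      rw [h3]
      push_cast
      rw [nsmul_eq_mul, mul_one]
      push_cast
      field_simp
    have h2 := congrFun hm 1
    rw [h1, Finset.sum_apply] at h2
    have h3 : ((1 + k + l : ℕ) : ℂ) = ((∑ ψ : IrrCharacter L, m ψ * charDegree (ψ : L → ℂ) : ℕ) : ℂ) := by
      rw [h2]
      push_cast
      refine Finset.sum_congr rfl fun ψ _ => ?_
      rw [Pi.smul_apply, hdeg, nsmul_eq_mul]
    exact_mod_cast h3.symm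
  · have h1 : classInner W W = ((∑ ψ : IrrCharacter L, m ψ ^ 2 : ℕ) : ℂ) := by
      conv_lhs => rw [hm]
      rw [classInner_sum_left]
      push_cast
      refine Finset.sum_congr rfl fun ψ _ => ?_
      rw [← Nat.cast_smul_eq_nsmul ℂ, classInner_smul_left, ← hm, ← classInner_conj_symm, hcoef ψ, Complex.conj_natCast,
        pow_two]
    rw [classInner_self_eq_ofReal] at h1
    have h2 : (Nat.card L : ℝ)⁻¹ * ∑ g : L, Complex.normSq (W g) = ((∑ ψ : IrrCharacter L, m ψ ^ 2 : ℕ) : ℝ) := by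
      exact_mod_cast h1
    have h3 : ∑ g : L, Complex.normSq (W g) ≤ 3 * Nat.card L := by
      rw [← sum_sq h]
      refine Finset.sum_le_sum fun g _ => ?_
      rw [Complex.normSq_eq_norm_sq]
      exact pow_le_pow_left₀ (norm_nonneg _) (norm_le x0 μ g) 2
    have h0 : (0 : ℝ) < Nat.card L := by exact_mod_cast Nat.card_pos
    have h4 : ((∑ ψ : IrrCharacter L, m ψ ^ 2 : ℕ) : ℝ) ≤ 3 := by
      rw [← h2, inv_mul_le_iff₀ h0, mul_comm]
      exact h3
    exact_mod_cast h4
  · intro ψ hψ hz1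
    apply hψ
    -- `W (z g) = μ z * W g`
    have hW1 : ∀ g : L, W (z * g) = (μ ⟨z, hzH⟩ : ℂ) * W g := by
      intro g
      rw [hW, indFun_apply, indFun_apply, ← mul_assoc, mul_comm (μ ⟨z, hzH⟩ : ℂ), mul_assoc]
      congr 1
      rw [Finset.mul_sum]
      refine Finset.sum_congr rfl fun x _ => ?_
      have e : x⁻¹ * (z * g) * x = z * (x⁻¹ * g * x) := by
        have h1 := mem_center_iff.1 hz x⁻¹
        calc x⁻¹ * (z * g) * x = (x⁻¹ * z) * g * x := by group
          _ = (z * x⁻¹) * g * x := by rw [h1]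
          _ = _ := by group
      rw [e]
      by_cases hx : x⁻¹ * g * x ∈ stabilizer L x0
      · rw [extendByZero_of_mem _ _ hx, extendByZero_of_mem _ _ (mul_mem hzH hx)]
        have e2 : (⟨z * (x⁻¹ * g * x), mul_mem hzH hx⟩ : stabilizer L x0) = ⟨z, hzH⟩ * ⟨x⁻¹ * g * x, hx⟩ := rfl
        rw [e2, map_mul, Units.val_mul]
      · have hx' : z * (x⁻¹ * g * x) ∉ stabilizer L x0 := fun h => hx (by
          have := mul_mem (inv_mem hzH) h
          rwa [inv_mul_cancel_left] at this)
        rw [extendByZero_of_notMem _ _ hx, extendByZero_of_notMem _ _ hx', mul_zero]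
    have hψ1 : ∀ g : L, (ψ : L → ℂ) (z * g) = (ψ : L → ℂ) g := by
      intro g
      obtain ⟨w, -, hw⟩ := CharDeep.DegreeBound.exists_omega ψ.2 hz
      have h1 := hw 1
      rw [one_mul, hz1] at h1
      have hw1 : w = 1 := by
        have h2 : (w - 1) * (ψ : L → ℂ) 1 = 0 := by linear_combination -h1
        rcases mul_eq_zero.1 h2 with h3 | h3
        · linear_combination h3
        · exact absurd h3 (H113.QS.irr_one_ne ψ)
      rw [← mem_center_iff.1 hz g, hw g, hw1, one_mul]
    have h1 : classInner W (ψ : L → ℂ) = (μ ⟨z, hzH⟩ : ℂ) * classInner W (ψ : L → ℂ) := by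
      conv_lhs => rw [classInner_def, ← Equiv.sum_comp (Equiv.mulLeft z)]
      rw [classInner_def, ← mul_assoc, mul_comm (μ ⟨z, hzH⟩ : ℂ), mul_assoc]
      congr 1
      rw [Finset.mul_sum]
      refine Finset.sum_congr rfl fun g _ => ?_
      rw [Equiv.coe_mulLeft, hW1, hψ1, mul_assoc]
    rw [hcoef ψ] at h1
    have h2 : (1 - (μ ⟨z, hzH⟩ : ℂ)) * (m ψ : ℂ) = 0 := by linear_combination h1
    rcases mul_eq_zero.1 h2 with h3 | h3
    · exfalso
      apply hμ
      apply Units.ext
      rw [Units.val_one]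
      linear_combination -h3
    · exact_mod_cast h3

end gen

end Cfsg.Agent.H265.S8.FiMono
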